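import Cfsg.Agent.HeR.Scan
import Cfsg.Prelude.Def_TwoFusion

/-! Fusion of the central involution: `t` and `b` are never fused, and `z` is isolated unless `A1` or `A2` is fused. -/

set_option autoImplicit false
set_option maxRecDepth 100000
set_option linter.unusedSectionVars false

namespace Cfsg.Agent.HeR

open Cfsg.Agent.Comp Cfsg.Agent.Spor Cfsg.Agent.BG

variable {G : Type*} [Group G] {f : ℕ → G}

def Fu (f : ℕ → G) (n : ℕ) : Prop := IsConj (f z) (f n)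

theorem rp_sq (i : ℕ) : mul (rp i) (rp i) = one := by
  have : ∀ x ∈ one :: reps, mul x x = one := by decide +kernel
  exact this _ (by rcases nthL_mem_or one reps i with h | h <;> simp [rp, h])

namespace St
variable (h : St f)
include h

theorem fu_cjw (w : List ℕ) {x : ℕ} (hx : V x) : Fu f (HeR.cjw w x) ↔ Fu f x := by
  have : IsConj (f x) (f (HeR.cjw w x)) := isConj_iff.2 ⟨_, (h.cjw w hx).symm⟩
  exact ⟨fun a => a.trans this.symm, fun a => a.trans this⟩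

theorem sq {x : ℕ} (hx : V x) : f x * f x = 1 ↔ HeR.mul x x = HeR.one := by rw [← h.mul hx hx, h.eq_one (hx.mul hx)]

theorem pull {g x s : G} (e : g * f z * g⁻¹ = x) (hc : Commute s x) : ∃ n, V n ∧ s = g * f n * g⁻¹ := by
  obtain ⟨n, hn, e'⟩ := h.surj (g⁻¹ * s * g) (by
    subst e
    calc g⁻¹ * s * g * f z = g⁻¹ * (s * (g * f z * g⁻¹)) * g := by group
      _ = _ := by rw [hc.eq]; group)
  exact ⟨n, hn, by rw [← e']; group⟩

theorem pair {g x y : G} (e : g * f z * g⁻¹ = x) (hc : Commute y x) (hy : y * y = 1) (h1 : y ≠ 1) (h2 : y ≠ x) :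
    ∃ k, ∃ i < 7, k * f z * k⁻¹ = x ∧ k * f (rp i) * k⁻¹ = y ∧ Commute (g⁻¹ * k) (f z) := by
  obtain ⟨n, hn, rfl⟩ := h.pull e hc
  have h3 : HeR.mul n n = HeR.one := (h.sq hn).1 (by
    calc f n * f n = g⁻¹ * (g * f n * g⁻¹ * (g * f n * g⁻¹)) * g := by group
      _ = 1 := by rw [hy]; group)
  rcases cls hn h3 with rfl | rfl | ⟨i, hi, w, rfl⟩
  · simp [h.one] at h1
  · exact absurd e h2
  · refine ⟨g * f (HeR.evc w), i, hi, ?_, ?_, by simpa using h.comm_z (V_evc w)⟩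
    · rw [← e, mul_assoc g, (h.comm_z (V_evc w)).eq]; group
    · rw [h.cjw w (V_rp i)]; group

theorem swap {x : ℕ} (hx : V x) (hf : Fu f x) (hz : x ≠ z) :
    ∃ k, ∃ i < 7, k * f z * k⁻¹ = f x ∧ k * f (rp i) * k⁻¹ = f z := by
  obtain ⟨g, e⟩ := isConj_iff.1 hf
  obtain ⟨k, i, hi, h1, h2, -⟩ := h.pair e (h.comm_z hx).symm h.zz h.z_ne fun e => hz (h.inj hx V_z e.symm)
  exact ⟨k, i, hi, h1, h2⟩

theorem nfu_t : ¬ Fu f (rp 2) := fun hf => by
  obtain ⟨g, e⟩ := isConj_iff.1 hf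
  have hs : V 17576131 := V_of (b := 17593311) (by decide +kernel)
  obtain ⟨n, hn, e'⟩ := h.pull e ((h.cm hs (V_rp 2)).1 (by decide +kernel))
  have h4 : f z = g * f (HeR.mul (HeR.mul n n) (HeR.mul n n)) * g⁻¹ := by
    rw [show z = HeR.mul (HeR.mul 17576131 17576131) (HeR.mul 17576131 17576131) by decide +kernel, h.mul (hs.mul hs) (hs.mul hs),
      h.mul hs hs, e', h.mul (hn.mul hn) (hn.mul hn), h.mul hn hn]; group
  have := scan (P := fun n => force (HeR.mul n n) fun a => force (HeR.mul a a) fun b => imp (Nat.beq (HeR.mul b b) HeR.one)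
    (bor (Nat.beq b HeR.one) (Nat.beq b z))) (by decide +kernel) hn
  simp only [force_eq, imp_iff, nbeq, bor_eq, Bool.or_eq_true] at this
  have hV := (hn.mul hn).mul (hn.mul hn)
  rcases this ((h.sq hV).1 (by
    have := h.zz
    rw [h4] at this
    generalize f (HeR.mul (HeR.mul n n) (HeR.mul n n)) = y at this ⊢
    calc y * y = g⁻¹ * (g * y * g⁻¹ * (g * y * g⁻¹)) * g := by group
      _ = 1 := by rw [this]; group)) with e1 | e1
  · rw [e1, h.one] at h4; exact h.z_ne (by simpa using h4)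
  · rw [e1, e] at h4; exact absurd (h.inj V_z (V_rp 2) h4) (by decide)

theorem sq_ne_b {n : ℕ} (hn : V n) : f n * f n ≠ f (rp 4) := fun e => by
  have := scan (P := fun n => !Nat.beq (HeR.mul n n) (rp 4)) (by decide +kernel) hn
  rw [← h.mul hn hn] at e
  simp [h.inj (hn.mul hn) (V_rp 4) e] at this

theorem nfu_b : ¬ Fu f (rp 4) := fun hf => by
  obtain ⟨g, i, hi, e1, e2⟩ := h.swap (V_rp 4) hf (by decide)
  have : ∀ i < 7, ∃ s, (Nat.blt s 33554432 && Nat.beq (HeR.mul s (HeR.mul s z)) HeR.one &&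
      Nat.beq (HeR.mul s z) (HeR.mul z s)) = true ∧ HeR.mul s s = z ∧ HeR.cm s (rp i) = true := fun i hi =>
    ⟨nthL 0 [17044035, 17059909, 17059909, 17059909, 17059909, 17175107, 17569865] i, by revert i; decide +kernel⟩
  obtain ⟨s, h1, h2, h3⟩ := this i hi
  have hs := V_of h1
  obtain ⟨n, hn, e3⟩ := h.surj (g * f s * g⁻¹) (e2 ▸ ((h.cm hs (V_rp i)).1 h3).conj g)
  refine h.sq_ne_b hn ?_
  rw [← e3, ← e1, ← h2, h.mul hs hs]; group

theorem fu_of {g : G} {x y : ℕ} (e : g * f x * g⁻¹ = f y) : Fu f x ↔ Fu f y := by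
  have : IsConj (f x) (f y) := isConj_iff.2 ⟨_, e⟩
  exact ⟨fun a => a.trans this, fun a => a.trans this.symm⟩

theorem fu_z {i : ℕ} (hi : i = 0 ∨ i = 5 ∨ i = 6) (hf : Fu f (rp i)) : IsConj (f z) (f z * f (rp i)) := by
  rw [← h.mul V_z (V_rp i)]
  rcases hi with rfl | rfl | rfl
  · exact (show HeR.cjw (dw 4) (rp 0) = HeR.mul z (rp 0) by decide +kernel) ▸ (h.fu_cjw _ (V_rp 0)).2 hf
  · exact (show HeR.cjw (dw 4) (rp 5) = HeR.mul z (rp 5) by decide +kernel) ▸ (h.fu_cjw _ (V_rp 5)).2 hf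
  · exact (show HeR.cjw (dw 1) (rp 6) = HeR.mul z (rp 6) by decide +kernel) ▸ (h.fu_cjw _ (V_rp 6)).2 hf

/-- two commuting conjugates -/
theorem two {x w : ℕ} (hx : V x) (hf : Fu f x) (h1 : HeR.cm (HeR.cjw (dw w) x) x = true) (h2 : HeR.cjw (dw w) x ≠ x) :
    ∃ k, ∃ i < 7, Fu f (rp i) ∧ k * f z * k⁻¹ = f x ∧ k * (f z * f (rp i)) * k⁻¹ = f (HeR.mul x (HeR.cjw (dw w) x)) := by
  have hy := V_cjw (dw w) hx
  obtain ⟨g, e⟩ := isConj_iff.1 hf
  obtain ⟨g', e'⟩ := isConj_iff.1 ((h.fu_cjw (dw w) hx).2 hf)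
  obtain ⟨k, i, hi, e1, e2, -⟩ := h.pair e ((h.cm hy hx).1 h1) (by
    rw [← e']
    calc _ = g' * (f z * f z) * g'⁻¹ := by group
      _ = 1 := by rw [h.zz]; group) (by rw [← e']; simpa using h.z_ne) fun e => h2 (h.inj hy hx e)
  exact ⟨k, i, hi, (h.fu_of e2).2 ((h.fu_cjw (dw w) hx).2 hf), e1, by rw [h.mul hx hy, ← e1, ← e2]; group⟩

theorem nfu_c (h0 : ¬ Fu f (rp 0)) (h1 : ¬ Fu f (rp 1)) : ¬ Fu f (rp 3) := fun hf => by
  obtain ⟨k, i, hi, h2, e1, e2⟩ := h.two (w := 1) (V_rp 3) hf (by decide +kernel) (by decide +kernel)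
  rw [show HeR.mul (rp 3) (HeR.cjw (dw 1) (rp 3)) = rp 0 by decide +kernel] at e2
  have h5 : i = 0 ∨ i = 5 ∨ i = 6 → False := fun hi => h0 ((h.fu_z hi h2).trans (isConj_iff.2 ⟨_, e2⟩))
  obtain rfl : i = 3 := by
    by_contra h6
    interval_cases i
    exacts [h0 h2, h1 h2, h.nfu_t h2, h6 rfl, h.nfu_b h2, h5 (by simp), h5 (by simp)]
  have hs : V 17051717 := V_of (b := 17051725) (by decide +kernel)
  obtain ⟨n, hn, e3⟩ := h.pull e1 ((h.cm hs (V_rp 3)).1 (by decide +kernel))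
  refine h.sq_ne_b hn ?_
  rw [show rp 0 = HeR.mul 17051717 17051717 by decide +kernel, h.mul hs hs, e3, ← h.mul V_z (V_rp 3),
    show HeR.mul z (rp 3) = rp 4 by decide +kernel] at e2
  calc _ = k⁻¹ * (k * f n * k⁻¹ * (k * f n * k⁻¹)) * k := by group
    _ = _ := by rw [← e2]; group

theorem nfu_d (h1 : ¬ Fu f (rp 1)) (h3 : ¬ Fu f (rp 3)) : ¬ Fu f (rp 5) ∧ ¬ Fu f (rp 6) := by
  have key : ∀ x w c : ℕ, V x → HeR.cm (HeR.cjw (dw w) x) x = true → HeR.cjw (dw w) x ≠ x →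
      HeR.mul x (HeR.cjw (dw w) x) = HeR.cjw (dw c) (rp 3) → ¬ Fu f x := fun x w c hx a1 a2 a3 hf => by
    obtain ⟨k, i, hi, h2, -, e2⟩ := h.two hx hf a1 a2
    have h5 : i = 0 ∨ i = 5 ∨ i = 6 → False := fun hi =>
      h3 ((h.fu_cjw _ (V_rp 3)).1 (a3 ▸ (h.fu_z hi h2).trans (isConj_iff.2 ⟨_, e2⟩)))
    interval_cases i
    exacts [h5 (by simp), h1 h2, h.nfu_t h2, h3 h2, h.nfu_b h2, h5 (by simp), h5 (by simp)]
  exact ⟨key _ 6 865 (V_rp 5) (by decide +kernel) (by decide +kernel) (by decide +kernel),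
    key _ 5 596 (V_rp 6) (by decide +kernel) (by decide +kernel) (by decide +kernel)⟩

theorem isolated (h0 : ¬ Fu f (rp 0)) (h1 : ¬ Fu f (rp 1)) : IsIsolatedInvolution (f z) := by
  refine ⟨h.order_z, fun g hg => by_contra fun hne => ?_⟩
  obtain ⟨k, i, hi, e1, e2, -⟩ := h.pair (g := 1) (x := f z) (by simp) hg.symm (by
    calc _ = g * (f z * f z) * g⁻¹ := by group
      _ = 1 := by rw [h.zz]; group) (by simpa using h.z_ne) hne
  have h2 : Fu f (rp i) := (isConj_iff.2 ⟨g, rfl⟩).trans (isConj_iff.2 ⟨k, e2⟩).symm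
  have h3 := h.nfu_c h0 h1
  interval_cases i
  exacts [h0 h2, h1 h2, h.nfu_t h2, h3 h2, h.nfu_b h2, (h.nfu_d h1 h3).1 h2, (h.nfu_d h1 h3).2 h2]

end St

end Cfsg.Agent.HeR
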