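import Cfsg.Agent.HeR.Fus

/-! If `u = E₁₄` is fused to `z` there is an involution `a` swapping `z` and `u` and acting on `C_H(u)` in one of two
explicit ways (`St.exists_a`); evaluation of the action of words (`actw`). -/

set_option autoImplicit false
set_option maxRecDepth 100000
set_option linter.unusedSectionVars false

namespace Cfsg.Agent.HeR

open Cfsg.Agent.Comp Cfsg.Agent.Spor Cfsg.Agent.BG

variable {G : Type*} [Group G] {f f' : ℕ → G} {a d g k : G}

def u : ℕ := 17044033
def zu : ℕ := 17044049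
def rho : ℕ := 16920641
def ri : ℕ := 17178689
def x1 : ℕ := 17043525
def x2 : ℕ := 17043649
def x3 : ℕ := 17059905
def cr (x : ℕ) : ℕ := mul rho (mul x ri)
def ci (x : ℕ) : ℕ := mul ri (mul x rho)
def lam (l : ℕ) : ℕ := nthL one [17059905, 17059929, 17060673, 17060697] l
def iv (x : ℕ) : Bool := Nat.blt x 33554432 && Nat.beq (mul x x) one && Nat.beq (mul x z) (mul z x)

theorem V_iv {x : ℕ} (h : iv x = true) : V x := V_of h
theorem V_u : V u := V_iv (by decide +kernel)
theorem V_zu : V zu := V_iv (by decide +kernel)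
theorem V_rho : V rho := V_of (b := ri) (by decide +kernel)
theorem V_ri : V ri := V_of (b := rho) (by decide +kernel)
theorem V_x1 : V x1 := V_iv (by decide +kernel)
theorem V_x2 : V x2 := V_iv (by decide +kernel)
theorem V_x3 : V x3 := V_iv (by decide +kernel)

def Mp (f f' : ℕ → G) (k : G) (x y : ℕ) : Prop := V x ∧ V y ∧ k * f x * k⁻¹ = f' y

theorem Mp.mul (h : St f) (h' : St f') {x y x' y' : ℕ} (a : Mp f f' k x y) (b : Mp f f' k x' y') :
    Mp f f' k (mul x x') (mul y y') :=
  ⟨a.1.mul b.1, a.2.1.mul b.2.1, by rw [h.mul a.1 b.1, h'.mul a.2.1 b.2.1, ← a.2.2, ← b.2.2]; group⟩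

theorem Mp.eq (h' : St f') {x y x' y' : ℕ} (a : Mp f f' k x y) (b : Mp f f' k x' y') (e : x = x') : y = y' :=
  h'.inj a.2.1 b.2.1 (by rw [← a.2.2, ← b.2.2, e])

theorem Mp.one (h : St f) (h' : St f') : Mp f f' k one one := ⟨V_one, V_one, by simp [h.one, h'.one]⟩

theorem Mp.cast {x y x' y' : ℕ} (a : Mp f f' k x y) (e : x = x') (e' : y = y') : Mp f f' k x' y' := e ▸ e' ▸ a

theorem Mp.push (h : St f) (h' : St f') (e1 : Mp f f' k z u) (e2 : Mp f f' k u z) {x : ℕ} (hx : V x)
    (hc : cm x u = true) : ∃ y, cm y u = true ∧ Mp f f' k x y := by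
  obtain ⟨y, hy, e⟩ := h'.surj (k * f x * k⁻¹) (e2.2.2 ▸ ((h.cm hx V_u).1 hc).conj k)
  exact ⟨y, (h'.cm hy V_u).2 (e ▸ e1.2.2 ▸ (h.comm_z hx).conj k), hx, hy, e⟩

theorem Mp.left (h' : St f') {x y c y' : ℕ} (a : Mp f f' k x y) (hc : V c) (hy : V y') (e : HeR.mul c y' = HeR.mul y c) :
    Mp f f' ((f' c)⁻¹ * k) x y' := by
  refine ⟨a.1, hy, ?_⟩
  have := congrArg f' e
  rw [h'.mul hc hy, h'.mul a.2.1 hc, ← a.2.2] at this
  calc _ = (f' c)⁻¹ * (k * f x * k⁻¹ * f' c) := by group
    _ = _ := by rw [← this]; group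

theorem auto (h : St f) (h' : St f') (e1 : Mp f f' g z u) (e2 : Mp f f' g u z) : ∃ k, ∃ l < 4, Mp f f' k z u ∧
    Mp f f' k u z ∧ Mp f f' k rho rho ∧ Mp f f' k x1 x2 ∧ Mp f f' k x2 x1 ∧ Mp f f' k x3 (lam l) := by
  obtain ⟨y, hc, hy⟩ := e1.push h h' e2 V_rho (by decide +kernel)
  have s1 : forceL (mapL (fun w => cjw (dw w) rho) [0, 2, 3, 4, 289, 50, 66, 98, 4626, 35, 67, 4627, 52, 100, 4628, 12577, 24865, 1074, 1586, 74034, 834, 1602, 74050, 866, 1122, 74082, 201234, 397842, 1059, 74019, 835, 1603, 74051, 201235, 397843, 564, 74036, 612, 74084, 201236, 397844, 143649, 274721, 155937, 287009, 13362, 25650, 1184818, 17970, 1185330, 3219762, 6365490, 9026, 17218, 25410, 1184578, 13890, 1185346, 3219778, 6365506, 17250, 1184610, 13410, 25698, 1184866, 3219810, 6365538, 2298386, 4395538, 6492690, 303239698, 3543570, 4592146, 1184803, 1184579, 1185347, 3219779, 6365507, 4395539, 4592147, 1184308, 6365492, 1184356, 3219812, 2298388, 4395540, 303239700, 2494996, 4337953, 4350241,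 18953266, 18965554, 51516466, 101848114, 18957874, 70328626, 73474354, 18948930, 18957122, 18965314, 101847874, 18953794, 51516994, 101848642, 36774210, 70328642, 103883074, 4851835202, 39919938, 56697154, 73474370, 4854980930, 18957154, 18953314, 18965602, 51516514, 101848162, 70328674, 69407250, 105058834, 4853010962, 73601554, 70652434, 54923794, 39919924, 36774244, 69407252, 4850913812]) (fun L => scanH fun n =>
      imp (cm n u) (imp (Nat.beq (mul n (mul n n)) one) (bor (Nat.beq n one) (memL n L)))) = true := by decide +kernel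
  rw [forceL_eq] at s1
  have s2 := scan s1 hy.2.1
  simp only [imp_iff, nbeq, bor_eq, Bool.or_eq_true, memL_iff, mapL_eq, List.mem_map] at s2
  rcases s2 hc ((hy.mul h h' (hy.mul h h' hy)).eq h' (Mp.one h h') (by decide +kernel)) with rfl | ⟨w, hw, rfl⟩
  · have := hy.2.2
    rw [h'.one, conj_eq_one_iff, h.eq_one V_rho] at this
    exact absurd this (by decide)
  have s3 : ∀ w ∈ [0, 2, 3, 4, 289, 50, 66, 98, 4626, 35, 67, 4627, 52, 100, 4628, 12577, 24865, 1074, 1586, 74034, 834, 1602, 74050, 866, 1122, 74082, 201234, 397842, 1059, 74019, 835, 1603, 74051, 201235, 397843, 564, 74036, 612, 74084, 201236, 397844, 143649, 274721, 155937, 287009, 13362, 25650, 1184818, 17970, 1185330, 3219762, 6365490, 9026, 17218, 25410, 1184578, 13890, 1185346, 3219778, 6365506, 17250, 1184610, 13410, 25698, 1184866, 3219810, 6365538, 2298386, 4395538, 6492690, 303239698, 3543570, 4592146, 1184803, 1184579, 1185347, 3219779, 6365507, 4395539, 4592147, 1184308, 6365492, 1184356, 3219812, 2298388,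 4395540, 303239700, 2494996, 4337953, 4350241, 18953266, 18965554, 51516466, 101848114, 18957874, 70328626, 73474354, 18948930, 18957122, 18965314, 101847874, 18953794, 51516994, 101848642, 36774210, 70328642, 103883074, 4851835202, 39919938, 56697154, 73474370, 4854980930, 18957154, 18953314, 18965602, 51516514, 101848162, 70328674, 69407250, 105058834, 4853010962, 73601554, 70652434, 54923794, 39919924, 36774244, 69407252, 4850913812], mul (evc (dw w)) u = mul u (evc (dw w)) ∧
      mul (evc (dw w)) rho = mul (cjw (dw w) rho) (evc (dw w)) := by decide +kernel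
  have hc := V_evc (dw w)
  have a1 := e1.left h' hc V_u (s3 w hw).1
  have a2 := e2.left h' hc V_z hc.2.2
  have a3 := hy.left h' hc V_rho (s3 w hw).2
  generalize (f' (evc (dw w)))⁻¹ * g = k at a1 a2 a3
  have a4 := (a3.mul h h' a3).cast (show _ = ri by decide +kernel) (show _ = ri by decide +kernel)
  have hcr : ∀ {x y}, Mp f f' k x y → Mp f f' k (cr x) (cr y) := fun a => a3.mul h h' (a.mul h h' a4)
  have hci : ∀ {x y}, Mp f f' k x y → Mp f f' k (ci x) (ci y) := fun a => a4.mul h h' (a.mul h h' a3)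
  have key : ∀ x, V x → cm x u = true → mul x x = one → mul x (mul (cr x) (ci x)) = one →
      ∃ y ∈ [17043521, 17043525, 17043529, 17043533, 17043649, 17043653, 17043657, 17043661, 17043777, 17043781, 17043785, 17043789, 17043905, 17043909, 17043913, 17043917, 17059905, 17059929, 17060673, 17060697, 17567809, 17567829, 17568449, 17568469, 17584193, 17584221, 17585089, 17585117], Mp f f' k x y := fun x hx b1 b2 b3 => by
    obtain ⟨y, hc, hy⟩ := a1.push h h' a2 hx b1
    have := scan (P := fun n => imp (Nat.beq (mul n n) one) (imp (cm n u) (imp (Nat.beq (mul n (mul (cr n) (ci n))) one)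
      (memL n [17043521, 17043525, 17043529, 17043533, 17043649, 17043653, 17043657, 17043661, 17043777, 17043781, 17043785, 17043789, 17043905, 17043909, 17043913, 17043917, 17059905, 17059929, 17060673, 17060697, 17567809, 17567829, 17568449, 17568469, 17584193, 17584221, 17585089, 17585117])))) (by decide +kernel) hy.2.1
    simp only [imp_iff, nbeq, memL_iff] at this
    exact ⟨y, this ((hy.mul h h' hy).eq h' (Mp.one h h') b2) hc
      ((hy.mul h h' ((hcr hy).mul h h' (hci hy))).eq h' (Mp.one h h') b3), hy⟩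
  obtain ⟨y1, m1, b1⟩ := key x1 V_x1 (by decide +kernel) (by decide +kernel) (by decide +kernel)
  obtain ⟨y2, m2, b2⟩ := key x2 V_x2 (by decide +kernel) (by decide +kernel) (by decide +kernel)
  obtain ⟨y3, m3, b3⟩ := key x3 V_x3 (by decide +kernel) (by decide +kernel) (by decide +kernel)
  have s4 : Comp.allL [17043521, 17043525, 17043529, 17043533, 17043649, 17043653, 17043657, 17043661, 17043777, 17043781, 17043785, 17043789, 17043905, 17043909, 17043913, 17043917, 17059905, 17059929, 17060673, 17060697, 17567809, 17567829, 17568449, 17568469, 17584193, 17584221, 17585089, 17585117] (fun y3 => Comp.allL [17043521, 17043525, 17043529, 17043533, 17043649, 17043653, 17043657, 17043661, 17043777, 17043781, 17043785, 17043789, 17043905, 17043909, 17043913, 17043917, 17059905, 17059929, 17060673, 17060697, 17567809, 17567829, 17568449, 17568469, 17584193, 17584221, 17585089, 17585117] fun y1 => imp (Nat.beq (mul y1 y3) (mul u (mul y3 y1)))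
      (imp (Nat.beq (mul y1 (cr y3)) (mul u (mul (cr y3) y1))) (Comp.allL [17043521, 17043525, 17043529, 17043533, 17043649, 17043653, 17043657, 17043661, 17043777, 17043781, 17043785, 17043789, 17043905, 17043909, 17043913, 17043917, 17059905, 17059929, 17060673, 17060697, 17567809, 17567829, 17568449, 17568469, 17584193, 17584221, 17585089, 17585117] fun y2 =>
      imp (Nat.beq (mul y2 y3) (mul z (mul y3 y2))) (imp (Nat.beq (mul y2 (cr y3)) (mul z (mul (cr y3) y2)))
      (imp (Nat.beq (mul y1 y2) (mul y2 y1)) (imp (Nat.beq (mul y1 (cr y2)) (mul (cr y2) y1))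
      (anyL [one, rho, ri] fun c => band (Nat.beq (mul c x2) (mul y1 c)) (band (Nat.beq (mul c x1) (mul y2 c))
        (anyLt 4 fun l => Nat.beq (mul c (lam l)) (mul y3 c)))))))))) = true := by decide +kernel
  simp only [Comp.allL_iff, imp_iff, nbeq, anyL_iff, band_eq, Bool.and_eq_true, anyLt_iff] at s4
  obtain ⟨c, hc, c1, c2, l, hl, c3⟩ := s4 y3 m3 y1 m1
    ((b1.mul h h' b3).eq h' (a1.mul h h' (b3.mul h h' b1)) (by decide +kernel))
    ((b1.mul h h' (hcr b3)).eq h' (a1.mul h h' ((hcr b3).mul h h' b1)) (by decide +kernel)) y2 m2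
    ((b2.mul h h' b3).eq h' (a2.mul h h' (b3.mul h h' b2)) (by decide +kernel))
    ((b2.mul h h' (hcr b3)).eq h' (a2.mul h h' ((hcr b3).mul h h' b2)) (by decide +kernel))
    ((b1.mul h h' b2).eq h' (b2.mul h h' b1) (by decide +kernel))
    ((b1.mul h h' (hcr b2)).eq h' ((hcr b2).mul h h' b1) (by decide +kernel))
  have s5 : V c ∧ mul c u = mul u c ∧ mul c rho = mul rho c := by
    simp only [List.mem_cons, List.not_mem_nil, or_false] at hc
    rcases hc with rfl | rfl | rfl
    exacts [⟨V_one, by decide +kernel⟩, ⟨V_rho, by decide +kernel⟩, ⟨V_ri, by decide +kernel⟩]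
  exact ⟨_, l, hl, a1.left h' s5.1 V_u s5.2.1, a2.left h' s5.1 V_z s5.1.2.2, a3.left h' s5.1 V_rho s5.2.2,
    b1.left h' s5.1 V_x2 c1, b2.left h' s5.1 V_x1 c2,
    b3.left h' s5.1 (V_iv ((show ∀ l < 4, iv (lam l) = true by decide +kernel) l hl)) c3⟩

def BR : List ℕ := [17043525, 17043529, 17043537, 17043649, 17043777, 17044033, 17059905, 17567809]
def BR' (l : ℕ) : List ℕ := nthL [] [[17043649, 17043777, 17044033, 17043525, 17043529, 17043537, 17059905, 17567809], [17043649, 17043777, 17044033, 17043525, 17043529, 17043537, 17059929, 17567829], [17043649, 17043777, 17044033, 17043525, 17043529, 17043537, 17060673, 17568449], [17043649, 17043777, 17044033, 17043525, 17043529, 17043537, 17060697, 17568469]] l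

theorem basis (h : St f) (h' : St f') {l : ℕ} (hl : l < 4) (a1 : Mp f f' k z u) (a2 : Mp f f' k u z) (a3 : Mp f f' k rho rho)
    (b1 : Mp f f' k x1 x2) (b2 : Mp f f' k x2 x1) (b3 : Mp f f' k x3 (lam l)) : List.Forall₂ (Mp f f' k) BR (BR' l) := by
  have a4 := (a3.mul h h' a3).cast (show _ = ri by decide +kernel) (show _ = ri by decide +kernel)
  have hcr : ∀ {x y}, Mp f f' k x y → Mp f f' k (cr x) (cr y) := fun a => a3.mul h h' (a.mul h h' a4)
  have hci : ∀ {x y}, Mp f f' k x y → Mp f f' k (ci x) (ci y) := fun a => a4.mul h h' (a.mul h h' a3)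
  have : BR = [x1, cr x1, z, x2, cr x2, u, x3, ci x3] ∧ BR' l = [x2, cr x2, u, x1, cr x1, z, lam l, ci (lam l)] := by
    clear b3; revert l; decide +kernel
  rw [this.1, this.2]
  exact .cons b1 (.cons (hcr b1) (.cons a1 (.cons b2 (.cons (hcr b2) (.cons a2 (.cons b3 (.cons (hci b3) .nil)))))))

theorem Mp.lin (h : St f) (h' : St f') {B B' : List ℕ} (a : List.Forall₂ (Mp f f' k) B B') (v : ℕ) :
    Mp f f' k (lin B v) (lin B' v) := lin_ind2 (Mp.one h h') (fun _ _ _ _ => Mp.mul h h') a v

def BU1 : List ℕ := [x1, 17043529, z, x2, 17043777, u]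
def BU2 : List ℕ := [17043529, z, 17043777, u, 17051713, x3]

theorem V_BU1 : ∀ b ∈ BU1, V b := fun b hb => V_iv (by revert b; decide +kernel)
theorem V_BU2 : ∀ b ∈ BU2, V b := fun b hb => V_iv (by revert b; decide +kernel)
theorem V_lin {B : List ℕ} (h : ∀ b ∈ B, V b) (v : ℕ) : V (lin B v) := lin_ind V_one (fun _ _ => V.mul) h v

theorem St.lin_mem (h : St f) {B : List ℕ} (hB : ∀ b ∈ B, V b) (v : ℕ) : f (lin B v) ∈ genL f B :=
  (lin_ind (P := fun n => V n ∧ f n ∈ genL f B) ⟨V_one, h.one ▸ one_mem _⟩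
    (fun a b ha hb => ⟨ha.1.mul hb.1, h.mul ha.1 hb.1 ▸ mul_mem ha.2 hb.2⟩) (fun b hb => ⟨hB b hb, mem_genL f hb⟩) v).2

theorem St.T_norm [Finite G] (h : St f) {B : List ℕ} (hB : ∀ b ∈ B, V b)
    (H : ∀ l ∈ [0, 1, 2, 3], ∀ b ∈ B, ∃ v < 64, HeR.cjl l b = lin B v) : TG f ≤ N[genL f B] := by
  refine genL_le fun l hl => mem_norm_of_cj_le ?_
  rw [genL, cj_closure, Subgroup.closure_le]
  rintro _ ⟨_, ⟨b, hb, rfl⟩, rfl⟩
  obtain ⟨v, -, e⟩ := H l hl b hb
  have := h.lin_mem hB v
  rwa [← e, h.cjl l (hB b hb)] at this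

def LD2 : List ℕ := [16863489, 16863499, 16863505, 16863515, 16873729, 16873739, 16873745, 16873755, 16917057, 16917069, 16917073, 16917085, 16917441, 16917453, 16917457, 16917469, 16995201, 16995215, 16995217, 16995231, 17001025, 17001039, 17001041, 17001055, 17052225, 17052233, 17052241, 17052249, 17052481, 17052489, 17052497, 17052505, 17060161, 17060169, 17060177, 17060185, 17060673, 17060681, 17060689, 17060697, 17068353, 17068361, 17068369, 17068377, 17068609, 17068617, 17068625, 17068633, 17125441, 17125443, 17125457, 17125459, 17127489, 17127491, 17127505, 17127507, 17175105, 17175109, 17175121, 17175125, 17175233, 17175237, 17175249, 17175253, 17255041, 17255047, 17255057, 17255063, 17257025, 17257031, 17257041, 17257047, 17382145, 17382155, 17382161, 17382171, 17388289, 17388299, 17388305, 17388315, 17457601, 17457613, 17457617, 17457629, 17457729, 17457741, 17457745, 17457757, 17508929, 17508943, 17508945, 17508959, 17518977, 17518991, 17518993, 17519007, 17565825,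 17565831, 17565841, 17565847, 17567937, 17567941, 17567953, 17567957, 17568449, 17568453, 17568465, 17568469, 17569857, 17569859, 17569873, 17569875, 17574785, 17574799, 17574801, 17574815, 17578561, 17578571, 17578577, 17578587, 17582721, 17582727, 17582737, 17582743, 17584577, 17584589, 17584593, 17584605, 17585089, 17585101, 17585105, 17585117, 17586241, 17586243, 17586257, 17586259, 17590657, 17590671, 17590673, 17590687, 17594945, 17594955, 17594961, 17594971, 17635393, 17635395, 17635409, 17635411, 17649729, 17649731, 17649745, 17649747, 17699009, 17699013, 17699025, 17699029, 17699393, 17699397, 17699409, 17699413, 17762433, 17762439, 17762449, 17762455, 17781313, 17781319, 17781329, 17781335]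

/-- `U₁` and `U₂` are not conjugate -/
theorem St.not_swap [Finite G] (h : St f) (e : cj k (genL f BU2) = genL f BU1) : False := by
  have n1 := h.T_norm V_BU1 (by decide +kernel)
  have n2 : cj k (TG f) ≤ N[genL f BU1] := by rw [← e, N_cj]; exact cj_mono k (h.T_norm V_BU2 (by decide +kernel))
  obtain ⟨n, hn, e1⟩ := Sylow_trans (pHall_subl n2 le_top (pHallJsub (Subgroup.mem_top k) h.syl))
    (pHall_subl n1 le_top h.syl)
  have hc := h.norm_T (g := n * k) (mem_norm.2 (by rw [cj_mul, ← e1]))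
  have h1 : n * k * f (rp 6) * (n * k)⁻¹ ∈ genL f BU1 := by
    rw [← cj_of_norm hn, ← e, ← cj_mul]
    exact conj_mem_cj _ ((show lin BU2 24 = rp 6 by decide +kernel) ▸ h.lin_mem V_BU2 24)
  have h2 : ∀ b ∈ BU1, genL f BU1 ≤ C1[f b] := fun b hb => genL_le fun c hc =>
    Subgroup.mem_centralizer_singleton_iff.2 ((h.cm (V_BU1 c hc) (V_BU1 b hb)).1 (by revert b c; decide +kernel)).eq
  obtain ⟨y, hy, e2⟩ := h.surj _ (Subgroup.mem_centralizer_singleton_iff.1 (h2 z (by decide) h1))
  have h3 : ∀ x ∈ LD2, (∀ l < 6, memL (HeR.cjl l x) LD2 = true) ∧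
      ¬ ∀ b ∈ BU1, HeR.cm x b = true := by
    decide +kernel
  have h4 := h.invar (P := fun x => x ∈ LD2) (fun x hx hp l => by
    by_cases hl : l < 6
    · exact memL_iff.1 ((h3 x hp).1 l hl)
    · have : gc l = HeR.one := by rw [gc, nthL_eq, List.getD_eq_default _ _ (by simpa [gl] using hl)]
      rwa [HeR.cjl, this, hx.mul_one, hx.one_mul]) hc (V_rp 6) hy e2 (by decide +kernel)
  rw [e2] at h1
  exact (h3 y h4).2 fun b hb => (h.cm hy (V_BU1 b hb)).2 (Subgroup.mem_centralizer_singleton_iff.1 (h2 b hb h1))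

theorem St.exists_swap [Finite G] (h : St f) (hf : Fu f u) : ∃ g, Mp f f g z u ∧ Mp f f g u z := by
  obtain ⟨g, i, hi, e1, e2⟩ := h.swap V_u hf (by decide)
  obtain ⟨n, hn, e3⟩ := h.pull e1 ((h.cm V_rho V_u).1 (by decide +kernel))
  have h1 := scan (P := fun n => imp (Nat.beq (HeR.mul n (HeR.mul n n)) HeR.one) (bor (Nat.beq n HeR.one)
    (allLt 7 fun i => imp (HeR.cm n (rp i)) (Nat.blt i 2)))) (by decide +kernel) hn
  simp only [imp_iff, nbeq, bor_eq, Bool.or_eq_true, allLt_iff, nblt] at h1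
  have a : Mp f f g n rho := ⟨hn, V_rho, e3.symm⟩
  rcases h1 ((h.eq_one (hn.mul (hn.mul hn))).1 (by
    have := (a.mul h h (a.mul h h a)).2.2
    rwa [show HeR.mul rho (HeR.mul rho rho) = HeR.one by decide +kernel, h.one, conj_eq_one_iff] at this)) with rfl | h1
  · exact absurd (a.eq h (Mp.one h h) rfl) (by decide)
  have h2 := h1 i hi ((h.cm hn (V_rp i)).2 (by
    have := (h.comm_z V_rho).conj g⁻¹
    rw [e3, ← e2] at this
    simpa [mul_assoc] using this))
  interval_cases i
  · exfalso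
    have t1 : ∀ {x}, V x → HeR.mul x x = HeR.one → HeR.tw f x = f (ph x) := fun hx e =>
      inv_eq_of_mul_eq_one_right ((h.sq hx.ph).2 (by rw [← ph_mul, e]; decide +kernel))
    obtain ⟨k, l, hl, a1, a2, a3, b1, b2, b3⟩ := auto (g := g) h.tw h ⟨V_z, V_u, by rw [h.tw_z, e1]⟩
      ⟨V_u, V_z, by rw [t1 V_u (by decide +kernel), show ph u = rp 0 by decide +kernel, e2]⟩
    have hb := basis h.tw h hl a1 a2 a3 b1 b2 b3
    have t2 : ∀ v < 64, k * f (ph (lin BR v)) * k⁻¹ = f (lin (BR' l) v) := fun v hv => by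
      have := Mp.lin h.tw h hb v
      rw [← this.2.2, t1 this.1 (by clear this; revert v; decide +kernel)]
    refine h.not_swap (k := k) (le_antisymm ?_ (genL_le fun b hb => ?_))
    · rw [genL, cj_closure, Subgroup.closure_le]
      rintro _ ⟨_, ⟨b, hb, rfl⟩, rfl⟩
      obtain ⟨v, hv, c1, c2⟩ : ∃ v < 64, b = ph (lin BR v) ∧ lin (BR' l) v ∈ BU1 :=
        (show ∀ l < 4, ∀ b ∈ BU2, ∃ v < 64, b = ph (lin BR v) ∧ lin (BR' l) v ∈ BU1 by decide +kernel) l hl b hb
      have := mem_genL f c2
      rwa [← t2 v hv, ← c1] at this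
    · obtain ⟨v, hv, c1, c2⟩ : ∃ v < 64, b = lin (BR' l) v ∧ ph (lin BR v) ∈ BU2 :=
        (show ∀ l < 4, ∀ b ∈ BU1, ∃ v < 64, b = lin (BR' l) v ∧ ph (lin BR v) ∈ BU2 by decide +kernel) l hl b hb
      rw [c1, ← t2 v hv]
      exact conj_mem_cj _ (mem_genL f c2)
  · exact ⟨g, ⟨V_z, V_u, e1⟩, ⟨V_u, V_z, e2⟩⟩

/-- an involution `a` acting by the table `A` where `ok` holds -/
structure Ac (f : ℕ → G) (a : G) (A : ℕ → ℕ) (ok : ℕ → Bool) : Prop where
  sq : a * a = 1
  act : ∀ x, ok x = true → Mp f f a x (A x)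

def gR (n : ℕ) : ℕ := force n fun n => Nat.lor (Nat.lor (Nat.land (Nat.shiftRight n 2) 7) (Nat.land (Nat.shiftRight n 4) 56))
  (Nat.lor (Nat.land (Nat.shiftRight n 8) 64) (Nat.land (Nat.shiftRight n 12) 128))
def ky (n : ℕ) : ℕ := Nat.lor (Nat.land (Nat.shiftRight n 12) 3) (Nat.land (Nat.shiftRight n 15) 12)
def SS : List ℕ := [17043521, 17043521, 17043521, 17043521, 17043521, 17043521, 16916545, 16920641, 17043521, 17043521, 17043521, 17051713, 17043521, 17174593, 17178689, 17043521]
def SP (w : ℕ) : List ℕ := nthL [] [[17043521, 17043521, 17043521, 17043521, 17043521, 17043521, 16916545, 16920641, 17043521, 17043521, 17043521, 17051713, 17043521, 17174593, 17178689, 17043521], [17043521, 17043521, 17043521, 17043521, 17043521, 17043521, 16917073, 16920641, 17043521, 17043521, 17043521, 17052241, 17043521, 17175121, 17178689, 17043521]] w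
def vR (x : ℕ) : ℕ := gR (mul x (nthL one [17043521, 17043521, 17043521, 17043521, 17043521, 17043521, 16916545, 17178689, 17043521, 17043521, 17043521, 17051713, 17043521, 17174593, 16920641, 17043521] (ky x)))
def alf (l w x : ℕ) : ℕ := force x fun x => mul (lin (BR' l) (vR x)) (nthL one (SP w) (ky x))
def okC (x : ℕ) : Bool := force x fun x => Nat.beq x (mul (lin BR (vR x)) (nthL one SS (ky x)))

def gg (f : ℕ → G) (a d : G) (l : ℕ) : G := if l = 6 then a else if l = 7 then d else f (gc l)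

def actw (A D : ℕ → ℕ) (okA okD : ℕ → Bool) (w : List ℕ) : ℕ → ℕ := List.rec (motive := fun _ => ℕ → ℕ) (fun x => x)
  (fun l _ ih x => Bool.rec (Bool.rec (force (cjl l x) ih) (Bool.rec 0 (force (D x) ih) (okD x)) (Nat.beq l 7))
    (Bool.rec 0 (force (A x) ih) (okA x)) (Nat.beq l 6)) w

theorem St.actw (h : St f) {A D : ℕ → ℕ} {okA okD : ℕ → Bool} (ha : Ac f a A okA) (hd : Ac f d D okD) (w : List ℕ) :
    ∀ {x}, V x → actw A D okA okD w x ≠ 0 → Mp f f (ev (HeR.gg f a d) w) x (actw A D okA okD w x) := by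
  induction w with
  | nil => exact fun hx _ => ⟨hx, hx, by simp; rfl⟩
  | cons l w ih =>
    intro x hx
    have key : ∀ y, Mp f f (HeR.gg f a d l) x y → HeR.actw A D okA okD w y ≠ 0 →
        Mp f f (ev (HeR.gg f a d) (l :: w)) x (HeR.actw A D okA okD w y) := fun y b hy =>
      ⟨hx, (ih b.2.1 hy).2.1, by rw [← (ih b.2.1 hy).2.2, ← b.2.2, ev_cons]; group⟩
    have e : HeR.actw A D okA okD (l :: w) x = Bool.rec (Bool.rec (force (HeR.cjl l x) (HeR.actw A D okA okD w))
      (Bool.rec 0 (force (D x) (HeR.actw A D okA okD w)) (okD x)) (Nat.beq l 7))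
      (Bool.rec 0 (force (A x) (HeR.actw A D okA okD w)) (okA x)) (Nat.beq l 6) := rfl
    rw [e]
    simp only [force_eq]
    cases h6 : Nat.beq l 6
    · cases h7 : Nat.beq l 7
      · exact key _ ⟨hx, hx.cjl l, by rw [HeR.gg, if_neg (nbeq_false.1 h6), if_neg (nbeq_false.1 h7), h.cjl l hx]⟩
      · cases ho : okD x
        · exact fun e => absurd rfl e
        · exact key _ (by rw [HeR.gg, if_neg (nbeq_false.1 h6), if_pos (nbeq.1 h7)]; exact hd.act x ho)
    · cases ho : okA x
      · exact fun e => absurd rfl e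
      · exact key _ (by rw [HeR.gg, if_pos (nbeq.1 h6)]; exact ha.act x ho)

theorem ac_triv (f : ℕ → G) : Ac f 1 id fun _ => false := ⟨one_mul 1, fun _ e => nomatch e⟩

abbrev acA (A : ℕ → ℕ) (okA : ℕ → Bool) : List ℕ → ℕ → ℕ := actw A id okA fun _ => false

theorem Mp.comm {x : ℕ} (a : Mp f f k x x) : Commute k (f x) := mul_inv_eq_iff_eq_mul.1 a.2.2

theorem St.fix (h : St f) {A D : ℕ → ℕ} {okA okD : ℕ → Bool} (ha : Ac f a A okA) (hd : Ac f d D okD) {w : List ℕ}
    {x : ℕ} (hx : V x) (e : HeR.actw A D okA okD w x = x) : Commute (ev (HeR.gg f a d) w) (f x) := by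
  have := h.actw ha hd w hx (by rw [e]; rintro rfl; exact absurd hx.2.1 (by decide +kernel))
  exact (this.cast rfl e).comm

theorem St.exists_a0 [Finite G] (h : St f) (hf : Fu f u) : ∃ a : G, ∃ l ∈ [0, 3], ∃ w < 2, Ac f a (alf l w) okC := by
  obtain ⟨g, e1, e2⟩ := h.exists_swap hf
  obtain ⟨k, l, hl, a1, a2, a3, b1, b2, b3⟩ := auto h h e1 e2
  have sq : ∀ {k : G} {x y x' : ℕ}, Mp f f k x y → Mp f f k y x' → Mp f f (k * k) x x' := fun a b =>
    ⟨a.1, b.2.1, by rw [← b.2.2, ← a.2.2]; group⟩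
  obtain ⟨m, hm, e⟩ := h.surj _ (sq a1 a2).comm
  have h1 := scan (P := fun n => imp (HeR.cm n u) (imp (HeR.cm n rho) (imp (HeR.cm n x1) (memL n [HeR.one, z, u, zu]))))
    (by decide +kernel) hm
  simp only [imp_iff, h.cm hm V_u, h.cm hm V_rho, h.cm hm V_x1, memL_iff, ← e] at h1
  have h2 : Mp f f k m m := ⟨hm, hm, by rw [← e]; group⟩
  have h3 := h1 (sq a2 a1).comm (sq a3 a3).comm (sq b1 b2).comm
  obtain ⟨a, ha, H⟩ : ∃ a : G, a * a = 1 ∧ ∀ {x y}, Mp f f k x y → Mp f f a x y := by
    simp only [List.mem_cons, List.not_mem_nil, or_false] at h3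
    rcases h3 with rfl | rfl | rfl | rfl
    · exact ⟨k, e.trans h.one, id⟩
    · exact absurd (h2.eq h a1 rfl) (by decide)
    · exact absurd (h2.eq h a2 rfl) (by decide)
    · refine ⟨k * f z, ?_, fun b => ⟨b.1, b.2.1, ?_⟩⟩
      · calc _ = k * f z * k⁻¹ * (k * k) * f z := by group
          _ = 1 := by
            rw [a1.2.2, e, ← h.mul V_u V_zu, ← h.mul (V_u.mul V_zu) V_z, h.eq_one ((V_u.mul V_zu).mul V_z)]
            decide +kernel
      · rw [← b.2.2, mul_assoc k, ← (h.comm_z b.1).eq]; group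
  replace a1 := H a1; replace a2 := H a2; replace a3 := H a3; replace b1 := H b1; replace b2 := H b2; replace b3 := H b3
  have hb := basis h h hl a1 a2 a3 b1 b2 b3
  have back : ∀ {x y x'}, Mp f f a x y → Mp f f a y x' → x = x' := fun p q =>
    h.inj p.1 q.2.1 (by rw [← (sq p q).2.2, ha]; simp)
  have hl' : l ∈ [0, 3] := by
    have := back b3 ((Mp.lin h h hb (nthL 0 [64, 70, 112, 118] l)).cast (by clear b3 hb; revert l; decide +kernel) rfl)
    clear b3 hb; revert l; decide +kernel
  obtain ⟨y, hc, hy⟩ := a1.push h h a2 (V_gc 2) (by decide +kernel)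
  have a4 := (a3.mul h h a3).cast (show _ = ri by decide +kernel) (show _ = ri by decide +kernel)
  have h4 : ∀ l ∈ [0, 3], scanH (fun n => imp (HeR.cm n u) (imp (Nat.beq (HeR.mul n rho) (HeR.mul ri n))
      (imp (Nat.beq (HeR.mul n x2) (HeR.mul (lin (BR' l) 3) n)) (imp (Nat.beq (HeR.mul n x1) (HeR.mul (lin (BR' l) 24) n))
      (imp (Nat.beq (HeR.mul n (lam l)) (HeR.mul (lin (BR' l) 64) n))
      (anyL [0, 4, 32, 36] fun v => Nat.beq n (HeR.mul (gc 2) (lin BR v)))))))) = true := by decide +kernel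
  have h5 := scan (h4 l hl') hy.2.1
  simp only [imp_iff, nbeq, anyL_iff] at h5
  obtain ⟨v, hv, rfl⟩ := h5 hc ((hy.mul h h a3).eq h (a4.mul h h hy) (by decide +kernel))
    ((hy.mul h h b1).eq h ((Mp.lin h h hb _).mul h h hy) (by decide +kernel))
    ((hy.mul h h b2).eq h ((Mp.lin h h hb _).mul h h hy) (by decide +kernel))
    ((hy.mul h h b3).eq h ((Mp.lin h h hb _).mul h h hy) (by decide +kernel))
  obtain ⟨w, hw, e2⟩ : ∃ w < 2, HeR.mul (gc 2) (lin BR v) = nthL HeR.one (SP w) 11 := by
    have := back hy (hy.mul h h (Mp.lin h h hb v))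
    clear hy hb b3 hc h5; revert l v; decide +kernel
  rw [e2] at hy
  have hS : List.Forall₂ (Mp f f a) SS (SP w) := by
    have o := Mp.one (k := a) h h
    have : SS = [HeR.one, HeR.one, HeR.one, HeR.one, HeR.one, HeR.one, HeR.mul ri (gc 2), rho, HeR.one, HeR.one, HeR.one,
        gc 2, HeR.one, HeR.mul rho (gc 2), ri, HeR.one] ∧ SP w = [HeR.one, HeR.one, HeR.one, HeR.one, HeR.one, HeR.one,
        HeR.mul ri (nthL HeR.one (SP w) 11), rho, HeR.one, HeR.one, HeR.one, nthL HeR.one (SP w) 11, HeR.one,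
        HeR.mul rho (nthL HeR.one (SP w) 11), ri, HeR.one] := by clear hy e2; revert w; decide +kernel
    rw [this.1, this.2]
    exact .cons o (.cons o (.cons o (.cons o (.cons o (.cons o (.cons (a4.mul h h hy) (.cons a3 (.cons o (.cons o (.cons o
      (.cons hy (.cons o (.cons (a3.mul h h hy) (.cons a4 (.cons o .nil)))))))))))))))
  refine ⟨a, l, hl', w, hw, ha, fun x hx => ?_⟩
  simp only [okC, force_eq, nbeq] at hx
  have : ∀ {L L' : List ℕ}, List.Forall₂ (Mp f f a) L L' → ∀ i, Mp f f a (nthL HeR.one L i) (nthL HeR.one L' i) := by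
    intro L L' hL
    simp only [nthL_eq]
    induction hL with
    | nil => exact fun _ => Mp.one h h
    | cons p _ ih => rintro (_ | i); exacts [p, ih i]
  exact ((Mp.lin h h hb (vR x)).mul h h (this hS (ky x))).cast hx.symm (by simp only [alf, force_eq])

/-- membership in `V₁ ∪ V₂` -/
def inVV (n : ℕ) : Bool := band (Nat.beq (Nat.land n 473536) 266304) (bor (Nat.beq (Nat.land n 14) 0) (Nat.beq (Nat.land n 541184) 0))

theorem St.inVV (h : St f) (hg : Commute g (f z)) {x y : ℕ} (a : Mp f f g x y) (hx : inVV x = true) : inVV y = true :=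
  h.invar (P := fun x => HeR.inVV x = true) (fun x hx hp l => by
    by_cases hl : l < 6
    · exact allLt_iff.1 (imp_iff.1 (scan (P := fun n => imp (HeR.inVV n) (allLt 6 fun l => HeR.inVV (HeR.cjl l n)))
        (by decide +kernel) hx) hp) l hl
    · have : gc l = HeR.one := by rw [gc, nthL_eq, List.getD_eq_default _ _ (by simpa [gl] using hl)]
      rwa [HeR.cjl, this, hx.mul_one, hx.one_mul]) hg a.1 a.2.1 a.2.2 hx

/-- the two admissible actions -/
def al (t x : ℕ) : ℕ := alf (Nat.mul 3 t) t x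

theorem St.exists_a [Finite G] (h : St f) (hf : Fu f u) : ∃ a : G, ∃ t < 2, Ac f a (al t) okC ∧ (a * f (gc 0)) ^ 3 = 1 := by
  obtain ⟨a, l, hl, w, hw, ha⟩ := h.exists_a0 hf
  have bad : ∀ x c : ℕ, V x → acA (alf l w) okC (dw c) z = z → acA (alf l w) okC (dw c) x ≠ 0 → HeR.inVV x = true →
      HeR.inVV (acA (alf l w) okC (dw c) x) = true := fun x c hx e1 e2 =>
    h.inVV (h.fix ha (ac_triv f) V_z e1) (h.actw ha (ac_triv f) _ hx e2)
  obtain ⟨t, ht, rfl, rfl⟩ : ∃ t < 2, l = Nat.mul 3 t ∧ w = t := by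
    simp only [List.mem_cons, List.not_mem_nil, or_false] at hl
    rcases hl with rfl | rfl <;> interval_cases w
    · exact ⟨0, by decide⟩
    · exact absurd (bad 17043529 481111 (V_iv (by decide +kernel)) (by decide +kernel) (by decide +kernel) (by decide +kernel))
        (by decide +kernel)
    · exact absurd (bad 17044033 8071610200663 (V_iv (by decide +kernel)) (by decide +kernel) (by decide +kernel) (by decide +kernel))
        (by decide +kernel)
    · exact ⟨1, by decide⟩
  refine ⟨a, w, ht, ha, ?_⟩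
  have e : ev (HeR.gg f a 1) [0, 6, 0, 6, 0, 6] = (a * f (gc 0)) ^ 3 := by simp [HeR.gg, pow_succ, mul_assoc]
  have c : ∀ x ∈ BR, Commute ((a * f (gc 0)) ^ 3) (f x) := fun x hx =>
    e ▸ h.fix ha (ac_triv f) (V_iv (by revert x; decide +kernel)) (by clear ha bad hl; revert x w; decide +kernel)
  obtain ⟨m, hm, e1⟩ := h.surj _ (c z (by decide))
  have h1 := scan (P := fun n => imp (Comp.allL BR (HeR.cm n)) (memL n [HeR.one, z, u, zu])) (by decide +kernel) hm
  have h2 := memL_iff.1 (imp_iff.1 h1 (Comp.allL_iff.2 fun x hx =>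
    (h.cm hm (V_iv (by revert x; decide +kernel))).2 (e1 ▸ c x hx)))
  have h3 := h.actw ha (ac_triv f) [0, 6] hm (by clear e1 hm h1 ha bad hl c e; revert m w; decide +kernel)
  have h4 := h3.eq h ⟨hm, hm, by
    rw [← e1, show ev (HeR.gg f a 1) [0, 6] = a * f (gc 0) by simp [HeR.gg]]
    generalize a * f (gc 0) = y; group⟩ rfl
  rw [e1, h.eq_one hm]
  clear e1 hm h1 h3 ha bad hl c e; revert m w; decide +kernel

end Cfsg.Agent.HeR
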