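import Cfsg.Agent.HeR.Loc
import Cfsg.Agent.Spor.J.HRb
import Cfsg.Agent.Spor.J.HRh
import Cfsg.Agent.Spor.J.HRp
import Cfsg.Agent.Spor.J.HRq
import Cfsg.Agent.Spor.J.HRnl
import Cfsg.Agent.Spor.J.HRgl
import Cfsg.Agent.Spor.J.HRnm
import Cfsg.Agent.Spor.J.HRgm
import Cfsg.Agent.Spor.J.HRne
import Cfsg.Agent.Spor.J.HRge

/-! The generators `H, a, d` satisfy the relators of the four enumerations; the resulting order bounds. -/

set_option autoImplicit false
set_option maxRecDepth 100000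
set_option linter.unusedSectionVars false
set_option synthInstance.maxSize 2048

namespace Cfsg.Agent.HeR

open Cfsg.Agent.Comp Cfsg.Agent.Spor Cfsg.Agent.BG

variable {G : Type*} [Group G] {f : ℕ → G} {a d g : G} {A D : ℕ → ℕ} {okA okD : ℕ → Bool} {ta td : ℕ}

def de (t x : ℕ) : ℕ := ph (al t (ph x))
def okE (x : ℕ) : Bool := band (Nat.blt x 33554432) (okC (ph x))

def A1 (f : ℕ → G) (a : G) (t : ℕ) : Prop := Ac f a (al t) okC ∧ (a * f (gc 0)) ^ 3 = 1

theorem tw_tw {x : ℕ} (hx : V x) : tw (tw f) x = f x := by rw [tw, tw, ph_ph hx.1, inv_inv]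

theorem A1.tw_tw (H : A1 f a ta) : A1 (tw (tw f)) a ta :=
  ⟨⟨H.1.sq, fun x hx => have := H.1.act x hx; ⟨this.1, this.2.1, by
    rw [HeR.tw_tw this.1, HeR.tw_tw this.2.1, this.2.2]⟩⟩, by rw [HeR.tw_tw (V_gc 0)]; exact H.2⟩

theorem A1.de (h : St f) (H : A1 (tw f) d td) : Ac f d (de td) okE ∧ (d * f (gc 3)) ^ 3 = 1 := by
  refine ⟨⟨H.1.sq, fun x hx => ?_⟩, ?_⟩
  · simp only [okE, band_eq, Bool.and_eq_true, nblt] at hx
    obtain ⟨h1, h2, h3⟩ := H.1.act _ hx.2
    refine ⟨ph_ph hx.1 ▸ h1.ph, h2.ph, inv_injective ?_⟩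
    rw [tw, tw, ph_ph hx.1] at h3
    rw [HeR.de, ← h3]; group
  · have := H.2
    rwa [tw, show ph (gc 0) = gc 3 by decide +kernel, inv_eq_of_mul_eq_one_right (h.gg 3)] at this

theorem Ac.inv (H : Ac f a A okA) : a⁻¹ = a := inv_eq_of_mul_eq_one_right H.sq

theorem Ac.act' (H : Ac f a A okA) {x : ℕ} (hx : okA x = true) : a * f x = f (A x) * a := by
  rw [← (H.act x hx).2.2]; group

theorem A1.mul_zu (h : St f) (hta : ta < 2) (H : A1 f a ta) : A1 f (a * f zu) ta := by
  have e : a * f zu = f zu * a := by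
    rw [H.1.act' (by decide +kernel), show al ta zu = zu by clear H; revert ta; decide +kernel]
  have e2 : f zu * f zu = 1 := (h.sq V_zu).2 (by decide +kernel)
  refine ⟨⟨?_, fun x hx => ?_⟩, ?_⟩
  · calc _ = a * (f zu * a) * f zu := by group
      _ = _ := by rw [← e, ← mul_assoc, H.1.sq, one_mul, e2]
  · obtain ⟨h1, h2, h3⟩ := H.1.act x hx
    refine ⟨h1, h2, ?_⟩
    simp only [okC, force_eq, nbeq] at hx
    have c1 : V (lin BR (vR x)) ∧ Commute (f zu) (f (lin BR (vR x))) := lin_ind (P := fun n => V n ∧ Commute (f zu) (f n))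
      ⟨V_one, by simp [h.one]⟩ (fun _ _ p q => ⟨p.1.mul q.1, h.mul p.1 q.1 ▸ p.2.mul_right q.2⟩) (fun b hb =>
        have := V_iv (show iv b = true by revert b; decide +kernel)
        ⟨this, (h.cm V_zu this).1 (by clear this; revert b; decide +kernel)⟩) _
    have c2 : ∀ b ∈ one :: SS, V b ∧ HeR.cm zu b = true := fun b hb =>
      ⟨V_of (b := HeR.mul b (HeR.mul b (HeR.mul b (HeR.mul b b)))) (by revert b; decide +kernel), by revert b; decide +kernel⟩
    have c3 := c2 (nthL one SS (ky x)) (by rcases nthL_mem_or one SS (ky x) with h | h <;> simp [h])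
    have c4 : Commute (f zu) (f x) := by
      rw [hx, h.mul c1.1 c3.1]; exact c1.2.mul_right ((h.cm V_zu c3.1).1 c3.2)
    rw [← h3, mul_assoc a, c4.eq]; group
  · have e3 : f zu * f (gc 0) = f (gc 0) * f u := by
      rw [← h.mul V_zu (V_gc 0), ← h.mul (V_gc 0) V_u]; exact congrArg f (by decide +kernel)
    have t : ∀ x y, V x → acA (al ta) okC [0, 6] x = y → y ≠ 0 → a * f (gc 0) * f x = f y * (a * f (gc 0)) := fun x y hx e h0 => by
      have := (h.actw H.1 (ac_triv f) [0, 6] hx (fun e' => h0 (e.symm.trans e'))).2.2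
      rw [show ev (HeR.gg f a 1) [0, 6] = a * f (gc 0) by simp [HeR.gg]] at this
      rw [← e, ← this]; group
    have t1 := t u zu V_u (by clear H t e; revert ta; decide +kernel) (by decide)
    have t2 := t zu z V_zu (by clear H t e t1; revert ta; decide +kernel) (by decide)
    have t3 := t z u V_z (by clear H t e t1 t2; revert ta; decide +kernel) (by decide)
    have e4 : f zu * f z * f u = 1 := by
      rw [← h.mul V_zu V_z, ← h.mul (V_zu.mul V_z) V_u, h.eq_one ((V_zu.mul V_z).mul V_u)]; decide +kernel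
    have := H.2
    rw [mul_assoc a, e3, ← mul_assoc]
    generalize a * f (gc 0) = τ at t1 t2 t3 this
    calc _ = τ * f u * (τ * f u) * (τ * f u) := by rw [pow_succ, sq]
      _ = f zu * (τ * f zu) * τ * (f zu * τ) := by rw [t1]; group
      _ = f zu * f z * τ * (τ * f zu) * τ := by nth_rw 1 [t2]; group
      _ = f zu * f z * (τ * f z) * τ * τ := by rw [t2]; group
      _ = 1 := by rw [t3, ← mul_assoc, e4, one_mul, ← this, pow_succ, sq]

def j0 (ta td : ℕ) : ℕ := nthL one [17043521, 17068097, 17043653, 17069005] (2 * ta + td)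
def wj (ta td : ℕ) : List ℕ := dw (nthL 0 [0, 1076, 289, 82160337700] (2 * ta + td))

structure Ty (f : ℕ → G) (a d : G) (ta td : ℕ) : Prop where
  lt : ta < 2 ∧ td < 2
  ha : Ac f a (al ta) okC
  hd : Ac f d (de td) okE
  ca : (a * f (gc 0)) ^ 3 = 1
  cd : (d * f (gc 3)) ^ 3 = 1
  ad : a * d * a * d = f (j0 ta td)

theorem ev_gg (h : St f) {w : List ℕ} (hw : ∀ x ∈ w, x < 6) : ev (gg f a d) w = f (evc w) := by
  rw [h.evc]
  induction w with
  | nil => rfl
  | cons l w ih =>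
    have := hw l List.mem_cons_self
    rw [ev_cons, ev_cons, ih fun x hx => hw x (List.mem_cons_of_mem _ hx), gg, if_neg (by omega), if_neg (by omega)]

theorem wj_lt : ∀ ta < 2, ∀ td < 2, ∀ x ∈ wj ta td, x < 6 := by decide +kernel

theorem V_j0 : ∀ ta < 2, ∀ td < 2, V (j0 ta td) := fun ta h1 td h2 =>
  V_of (b := evc (wj ta td)) (by revert td; revert ta; decide +kernel)

theorem St.exists_ty (h : St f) (h1 : ta < 2) (h2 : td < 2) (Ha : A1 f a ta) (Hd : A1 (HeR.tw f) d td) :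
    ∃ a', Ty f a' d ta td := by
  obtain ⟨hd, cd⟩ := Hd.de h
  have e0 : ev (HeR.gg f a d) (wj ta td ++ [7, 6, 7, 6]) = a * d * a * d * f (HeR.evc (wj ta td)) := by
    rw [ev_append, ev_gg h (wj_lt ta h1 td h2)]; simp [HeR.gg]
  have c : ∀ x ∈ [17043525, 17043529, 17043537, 17043649, 17043777, 17044033, 17051713, 17059905], Commute (a * d * a * d * f (HeR.evc (wj ta td))) (f x) := fun x hx =>
    e0 ▸ h.fix Ha.1 hd (V_iv (by revert x; decide +kernel)) (by clear Ha Hd hd e0; revert x; revert td; revert ta; decide +kernel)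
  obtain ⟨m, hm, e⟩ := h.surj _ (c z (by decide))
  obtain ⟨v, hv, e5⟩ := anyLt_iff.1 (imp_iff.1 (scan (P := fun n => imp (Comp.allL [17043525, 17043529, 17043537, 17043649, 17043777, 17044033, 17051713, 17059905] (HeR.cm n))
    (anyLt 16 fun v => Nat.beq n (lin [17043529, 17043537, 17043777, 17044033] v))) (by decide +kernel) hm) (Comp.allL_iff.2 fun x hx =>
    (h.cm hm (V_iv (by revert x; decide +kernel))).2 (e ▸ c x hx)))
  obtain rfl := nbeq.1 e5
  have hj := V_j0 ta h1 td h2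
  have e1 : a * d * a * d = f (HeR.mul (lin [17043529, 17043537, 17043777, 17044033] v) (j0 ta td)) := by
    rw [h.mul hm hj, ← e, mul_assoc _ (f _), ← h.mul (V_evc _) hj,
      show HeR.mul (HeR.evc (wj ta td)) (j0 ta td) = HeR.one by clear * - h1 h2; revert td; revert ta; decide +kernel, h.one, mul_one]
  generalize hJ : HeR.mul (lin [17043529, 17043537, 17043777, 17044033] v) (j0 ta td) = J at e1
  have k1 : okC J = true ∧ okE J = true := by subst hJ; clear * - h1 h2 hv; revert v; revert td; revert ta; decide +kernel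
  obtain ⟨p1, p2, p3⟩ := Ha.1.act J k1.1
  obtain ⟨-, q2, q3⟩ := hd.act J k1.2
  have k2 : HeR.mul (al ta J) J = HeR.one := by
    rw [← h.eq_one (p2.mul p1), h.mul p2 p1, ← p3, ← e1, Ha.1.inv]
    calc _ = a * a * d * a * d * (a * a) * d * a * d := by group
      _ = d * a * (d * d) * a * d := by rw [Ha.1.sq]; group
      _ = d * (a * a) * d := by rw [hd.sq]; group
      _ = 1 := by rw [Ha.1.sq, mul_one, hd.sq]
  have k3 : HeR.mul (de td J) J = HeR.one := by
    rw [← h.eq_one (q2.mul p1), h.mul q2 p1, ← q3, ← e1, hd.inv]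
    calc _ = d * a * d * a * (d * d) * a * d * a * d := by group
      _ = d * a * d * (a * a) * d * a * d := by rw [hd.sq]; group
      _ = d * a * (d * d) * a * d := by rw [Ha.1.sq]; group
      _ = d * (a * a) * d := by rw [hd.sq]; group
      _ = 1 := by rw [Ha.1.sq, mul_one, hd.sq]
  have k4 : J = j0 ta td ∨ okE zu = true ∧ HeR.mul zu (HeR.mul J (de td zu)) = j0 ta td := by
    subst hJ; clear * - h1 h2 hv k2 k3; revert v; revert td; revert ta; decide +kernel
  rcases k4 with rfl | ⟨k4, k5⟩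
  · exact ⟨a, ⟨h1, h2⟩, Ha.1, hd, Ha.2, cd, e1⟩
  · have Ha' := Ha.mul_zu h h1
    refine ⟨_, ⟨h1, h2⟩, Ha'.1, hd, Ha'.2, cd, ?_⟩
    obtain ⟨-, r2, r3⟩ := hd.act zu k4
    have e : a * f zu = f zu * a := by
      rw [Ha.1.act' (by decide +kernel), show al ta zu = zu by clear * - h1; revert ta; decide +kernel]
    rw [← k5, h.mul V_zu (p1.mul r2), h.mul p1 r2, ← r3, ← e1, hd.inv]
    calc _ = a * f zu * d * a * f zu * d := by group
      _ = f zu * a * d * a * (d * d) * f zu * d := by rw [e, hd.sq, mul_one]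
      _ = _ := by group

/-- checker for relators in which `a`, `d` occur in pairs -/
def run (A D : ℕ → ℕ) (okA okD : ℕ → Bool) (w : List ℕ) : ℕ → ℕ → ℕ → Bool :=
  List.rec (motive := fun _ => ℕ → ℕ → ℕ → Bool) (fun p _ x => band (Nat.beq p 0) (Nat.beq x one))
    (fun l _ ih p y x => bif' (Nat.blt l 6) (bif' (Nat.beq p 0) (force (mul (gc l) x) (ih 0 y)) (force (mul (gc l) y) fun y => ih p y x))
      (bif' (Nat.beq p 0) (ih l one x) (band (Nat.beq p l) (bif' (Nat.beq l 6) (band (okA y) (force (mul (A y) x) (ih 0 one)))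
        (band (Nat.beq l 7) (band (okD y) (force (mul (D y) x) (ih 0 one)))))))) w

theorem St.run (h : St f) (ha : Ac f a A okA) (hd : Ac f d D okD) (w : List ℕ) : ∀ p y x, V y → V x →
    run A D okA okD w p y x = true → ev (HeR.gg f a d) w * ((if p = 0 then 1 else f y * HeR.gg f a d p) * f x) = 1 := by
  induction w with
  | nil =>
    intro p y x _ _ H
    obtain ⟨rfl, rfl⟩ : p = 0 ∧ x = HeR.one := by simpa [HeR.run, nbeq] using H
    simp [h.one]
  | cons l w ih =>
    intro p y x hy hx H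
    change bif' (Nat.blt l 6) (bif' (Nat.beq p 0) (force (HeR.mul (gc l) x) (HeR.run A D okA okD w 0 y))
      (force (HeR.mul (gc l) y) fun y => HeR.run A D okA okD w p y x)) (bif' (Nat.beq p 0) (HeR.run A D okA okD w l HeR.one x)
      (band (Nat.beq p l) (bif' (Nat.beq l 6) (band (okA y) (force (HeR.mul (A y) x) (HeR.run A D okA okD w 0 HeR.one)))
        (band (Nat.beq l 7) (band (okD y) (force (HeR.mul (D y) x) (HeR.run A D okA okD w 0 HeR.one))))))) = true at H
    simp only [bif'_eq, nblt, nbeq, force_eq, band_eq, Bool.and_eq_true] at H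
    rw [ev_cons]
    split_ifs at H with h1 h2 h3 h4
    · have := ih _ _ _ hy ((V_gc l).mul hx) H
      rw [h.mul (V_gc l) hx] at this
      simpa [h2, HeR.gg, show l ≠ 6 by omega, show l ≠ 7 by omega, mul_assoc] using this
    · have := ih _ _ _ ((V_gc l).mul hy) hx H
      rw [h.mul (V_gc l) hy] at this
      simpa [h2, show HeR.gg f a d l = f (gc l) by simp [HeR.gg, show l ≠ 6 by omega, show l ≠ 7 by omega], mul_assoc] using this
    · have := ih _ _ _ V_one hx H
      simpa [h3, h.one, show l ≠ 0 by omega, mul_assoc] using this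
    · simp only [Bool.and_eq_true, nbeq] at H
      obtain ⟨rfl, h5, h6⟩ := H
      obtain ⟨-, p2, p3⟩ := ha.act y h5
      have := ih _ _ _ V_one (p2.mul hx) h6
      rw [h.mul p2 hx, ← p3, ha.inv] at this
      simpa [h4, HeR.gg, mul_assoc] using this
    · simp only [Bool.and_eq_true, nbeq] at H
      obtain ⟨rfl, h4, h5, h6⟩ := H
      obtain ⟨-, p2, p3⟩ := hd.act y h5
      have := ih _ _ _ V_one (p2.mul hx) h6
      rw [h.mul p2 hx, ← p3, hd.inv] at this
      simpa [h4, HeR.gg, mul_assoc] using this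

theorem St.rels' (h : St f) (ha : Ac f a A okA) (hd : Ac f d D okD) {L R : List (List ℕ)}
    (hL : ∀ r ∈ L, ev (HeR.gg f a d) r = 1) (H : (R.all fun r => L.contains r || HeR.run A D okA okD r 0 HeR.one HeR.one) = true) :
    ∀ r ∈ R, ev (HeR.gg f a d) r = 1 := fun r hr => by
  rcases Bool.or_eq_true_iff.1 (List.all_eq_true.1 H r hr) with e | e
  · exact hL r (List.contains_iff_mem.1 e)
  · simpa [h.one] using h.run ha hd r _ _ _ V_one V_one e

theorem St.rels (h : St f) (H : Ty f a d ta td) {L R : List (List ℕ)} (hL : ∀ r ∈ L, ev (HeR.gg f a d) r = 1)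
    (hR : (R.all fun r => ([0, 6, 0, 6, 0, 6] :: [3, 7, 3, 7, 3, 7] :: (wj ta td ++ [7, 6, 7, 6]) :: L).contains r ||
      HeR.run (al ta) (de td) okC okE r 0 HeR.one HeR.one) = true) : ∀ r ∈ R, ev (HeR.gg f a d) r = 1 := by
  refine h.rels' H.ha H.hd (List.forall_mem_cons.2 ⟨?_, List.forall_mem_cons.2 ⟨?_, List.forall_mem_cons.2 ⟨?_, hL⟩⟩⟩) hR
  · rw [← H.ca]; simp [HeR.gg, pow_succ, mul_assoc]
  · rw [← H.cd]; simp [HeR.gg, pow_succ, mul_assoc]
  · obtain ⟨h1, h2⟩ := H.lt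
    rw [ev_append, ev_gg h (wj_lt ta h1 td h2),
      show ev (HeR.gg f a d) [7, 6, 7, 6] = a * d * a * d by simp [HeR.gg], H.ad, ← h.mul (V_j0 _ h1 _ h2) (V_evc _),
      h.eq_one ((V_j0 _ h1 _ h2).mul (V_evc _))]
    clear * - h1 h2; revert td; revert ta; decide +kernel

theorem St.commD (h : St f) (ha : Ac f a A okA) (hd : Ac f d D okD) {j s y : ℕ} (hj : a * d * a * d = f j)
    (o1 : okD j = true) (o2 : okA (D j) = true) (o3 : okD s = true) (o4 : okA y = true)
    (e : HeR.mul (A y) s = HeR.mul (A (D j)) (HeR.mul (D s) y)) : Commute (d * f y) (a * f s) := by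
  have e1 : a * d = d * a * f (A (D j)) := by
    calc a * d = a * d * a * d * d * a := by
          rw [mul_assoc _ d d, hd.sq, mul_one, mul_assoc _ a a, ha.sq, mul_one]
      _ = d * (d * f j) * d * a := by rw [hj, ← mul_assoc, hd.sq, one_mul]
      _ = d * a * (a * f (D j)) * a := by
          rw [hd.act' o1, ← mul_assoc d, mul_assoc _ d d, hd.sq, mul_one, ← mul_assoc, mul_assoc d a a, ha.sq, mul_one]
      _ = _ := by rw [ha.act' o2, mul_assoc (d * a), mul_assoc _ a a, ha.sq, mul_one]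
  obtain ⟨p1, p2, -⟩ := ha.act y o4
  obtain ⟨q1, q2, -⟩ := hd.act s o3
  have e2 := congrArg f e
  rw [h.mul p2 q1, h.mul (ha.act _ o2).2.1 (q2.mul p1), h.mul q2 p1] at e2
  have e3 : f y * a = a * f (A y) := by
    rw [← (ha.act y o4).2.2, ha.inv, ← mul_assoc, ← mul_assoc, ha.sq, one_mul]
  have e4 : f s * d = d * f (D s) := by
    rw [← (hd.act s o3).2.2, hd.inv, ← mul_assoc, ← mul_assoc, hd.sq, one_mul]
  calc d * f y * (a * f s) = d * (f y * a) * f s := by group
    _ = d * a * (f (A y) * f s) := by rw [e3]; group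
    _ = a * (d * f (D s)) * f y := by rw [e2, ← mul_assoc a, e1]; group
    _ = _ := by rw [← e4]; group

theorem St.commN (h : St f) (ha : Ac f a A okA) {s n : ℕ} (hs : V s) (o : okA n = true)
    (e : HeR.mul s n = HeR.mul (A n) s) : Commute (f n) (a * f s) := by
  obtain ⟨p1, p2, p3⟩ := ha.act n o
  have e2 := congrArg f e
  rw [h.mul hs p1, h.mul p2 hs, ← p3, ha.inv] at e2
  calc f n * (a * f s) = a * (a * f n * a * f s) := by simp only [← mul_assoc, ha.sq, one_mul]
    _ = _ := by rw [← e2]; group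

theorem cent_U1 {n : ℕ} (hn : V n) (H : ∀ b ∈ BU1, cm n b = true) : ∃ v < 64, n = lin BU1 v :=
  (anyLt_iff.1 (imp_iff.1 (scan (P := fun n => imp (Comp.allL BU1 (cm n)) (anyLt 64 fun v => Nat.beq n (lin BU1 v)))
    (by decide +kernel) hn) (Comp.allL_iff.2 H))).imp fun _ h => ⟨h.1, nbeq.1 h.2⟩

theorem cent_U2 {n : ℕ} (hn : V n) (H : ∀ b ∈ BU2, cm n b = true) : ∃ v < 64, n = lin BU2 v :=
  (anyLt_iff.1 (imp_iff.1 (scan (P := fun n => imp (Comp.allL BU2 (cm n)) (anyLt 64 fun v => Nat.beq n (lin BU2 v)))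
    (by decide +kernel) hn) (Comp.allL_iff.2 H))).imp fun _ h => ⟨h.1, nbeq.1 h.2⟩

/-- a word centralising `U` and `τ` is trivial -/
theorem St.triv (h : St f) (ha : Ac f a A okA) (hd : Ac f d D okD) {B r t : List ℕ} (hB : ∀ b ∈ B, V b) (hz : z ∈ B)
    (hc : ∀ {n}, V n → (∀ b ∈ B, HeR.cm n b = true) → ∃ v < 64, n = lin B v)
    (c : Commute (ev (HeR.gg f a d) r) (ev (HeR.gg f a d) t)) (H1 : ∀ b ∈ B, HeR.actw A D okA okD r b = b)
    (H2 : ∀ v < 64, HeR.actw A D okA okD t (lin B v) ≠ 0 ∧ (HeR.actw A D okA okD t (lin B v) = lin B v → lin B v = HeR.one)) :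
    ev (HeR.gg f a d) r = 1 := by
  have c1 := fun b hb => h.fix ha hd (hB b hb) (H1 b hb)
  obtain ⟨m, hm, e⟩ := h.surj _ (c1 z hz)
  obtain ⟨v, hv, rfl⟩ := hc hm fun b hb => (h.cm hm (hB b hb)).2 (e ▸ c1 b hb)
  rw [e, h.eq_one hm]
  exact (H2 v hv).2 ((h.actw ha hd t hm (H2 v hv).1).eq h ⟨hm, hm, by rw [← e, ← c.eq]; group⟩ rfl)

theorem St.ex1 (h : St f) (H : Ty f a d ta td) {w tt : List ℕ} {k n ni y yi : ℕ} (ht : tt ∈ [[], [0, 6], [6, 0]])
    (K : (∀ x ∈ w, x < 6) ∧ HeR.evc w = HeR.mul y n ∧ okE (j0 ta td) = true ∧ okC (de td (j0 ta td)) = true ∧ okE (gc 0) = true ∧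
      okC y = true ∧ HeR.mul (al ta y) (gc 0) = HeR.mul (al ta (de td (j0 ta td))) (HeR.mul (de td (gc 0)) y) ∧ okC n = true ∧
      HeR.mul (gc 0) n = HeR.mul (al ta n) (gc 0) ∧ (∀ b ∈ BU1, HeR.actw (al ta) (de td) okC okE (tt ++ powW (w ++ [7]) k) b = b) ∧
      ∀ v < 64, HeR.actw (al ta) (de td) okC okE [0, 6] (lin BU1 v) ≠ 0 ∧
        (HeR.actw (al ta) (de td) okC okE [0, 6] (lin BU1 v) = lin BU1 v → lin BU1 v = HeR.one)) :
    ev (HeR.gg f a d) (tt ++ powW (w ++ [7]) k) = 1 := by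
  obtain ⟨k1, k2, k3, k4, k5, k6, k7, k8, k9, k10, k11⟩ := K
  refine h.triv H.ha H.hd V_BU1 (by decide) cent_U1 ?_ k10 k11
  have e : ev (HeR.gg f a d) [0, 6] = a * f (gc 0) := by simp [HeR.gg]
  rw [ev_append, ev_powW, ev_append, ev_gg h k1, k2, h.mul (H.ha.act y k6).1 (H.ha.act n k8).1, e,
    show ev (HeR.gg f a d) [7] = d by simp [HeR.gg], ← mul_assoc]
  refine (((h.commD H.ha H.hd H.ad k3 k4 k5 k6 k7).mul_left (h.commN H.ha (V_gc 0) k8 k9)).pow_left k).mul_left ?_
  simp only [List.mem_cons, List.not_mem_nil, or_false] at ht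
  rcases ht with rfl | rfl | rfl
  · simp
  · exact e ▸ Commute.refl _
  · rw [show ev (HeR.gg f a d) [6, 0] = (a * f (gc 0))⁻¹ by
      simp [HeR.gg, H.ha.inv, inv_eq_of_mul_eq_one_right (h.gg 0)]]
    exact (Commute.refl _).inv_left

theorem St.ex2 (h : St f) (H : Ty f a d ta td) {w tt : List ℕ} {k n ni y yi : ℕ} (ht : tt ∈ [[], [3, 7], [7, 3]])
    (K : (∀ x ∈ w, x < 6) ∧ HeR.evc w = HeR.mul y n ∧ okC (HeR.evc (wj ta td)) = true ∧ okE (al ta (HeR.evc (wj ta td))) = true ∧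
      okC (gc 3) = true ∧ okE y = true ∧
      HeR.mul (de td y) (gc 3) = HeR.mul (de td (al ta (HeR.evc (wj ta td)))) (HeR.mul (al ta (gc 3)) y) ∧ okE n = true ∧
      HeR.mul (gc 3) n = HeR.mul (de td n) (gc 3) ∧ (∀ b ∈ BU2, HeR.actw (al ta) (de td) okC okE (tt ++ powW (w ++ [6]) k) b = b) ∧
      (∀ v < 64, HeR.actw (al ta) (de td) okC okE [3, 7] (lin BU2 v) ≠ 0 ∧
        (HeR.actw (al ta) (de td) okC okE [3, 7] (lin BU2 v) = lin BU2 v → lin BU2 v = HeR.one)) ∧
      HeR.mul (j0 ta td) (HeR.evc (wj ta td)) = HeR.one) :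
    ev (HeR.gg f a d) (tt ++ powW (w ++ [6]) k) = 1 := by
  obtain ⟨k1, k2, k3, k4, k5, k6, k7, k8, k9, k10, k11, k12⟩ := K
  refine h.triv H.ha H.hd V_BU2 (by decide) cent_U2 ?_ k10 k11
  have e : ev (HeR.gg f a d) [3, 7] = d * f (gc 3) := by simp [HeR.gg]
  have e1 : d * a * d * a = f (HeR.evc (wj ta td)) := by
    have := congrArg f k12
    rw [h.mul (V_j0 _ H.lt.1 _ H.lt.2) (V_evc _), h.one, ← H.ad] at this
    rw [← inv_eq_of_mul_eq_one_right this]
    simp [H.ha.inv, H.hd.inv, mul_assoc]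
  rw [ev_append, ev_powW, ev_append, ev_gg h k1, k2, h.mul (H.hd.act y k6).1 (H.hd.act n k8).1, e,
    show ev (HeR.gg f a d) [6] = a by simp [HeR.gg], ← mul_assoc]
  refine (((h.commD H.hd H.ha e1 k3 k4 k5 k6 k7).mul_left (h.commN H.hd (V_gc 3) k8 k9)).pow_left k).mul_left ?_
  simp only [List.mem_cons, List.not_mem_nil, or_false] at ht
  rcases ht with rfl | rfl | rfl
  · simp
  · exact e ▸ Commute.refl _
  · rw [show ev (HeR.gg f a d) [7, 3] = (d * f (gc 3))⁻¹ by
      simp [HeR.gg, H.hd.inv, inv_eq_of_mul_eq_one_right (h.gg 3)]]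
    exact (Commute.refl _).inv_left

theorem St.rels_l [Finite G] (h : St f) (H : Ty f a d 0 0) : ∀ r ∈ JHRgl.rels, ev (HeR.gg f a d) r = 1 :=
  h.rels H (L := [[5, 7, 5, 7, 5, 7], [4, 6, 4, 6, 4, 6]]) (List.forall_mem_cons.2 ⟨h.ex1 H (w := [5]) (k := 3) (tt := []) (n := 16916545) (ni := 16916545) (y := 17043521) (yi := 17043521) (by decide) (by decide +kernel),
    List.forall_mem_singleton.2 (h.ex2 H (w := [4]) (k := 3) (tt := []) (n := 17041537) (ni := 17041537) (y := 17043521) (yi := 17043521) (by decide) (by decide +kernel))⟩) (by decide +kernel)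

theorem card_l {g : ℕ → G} (he : g 255 = 1) (hg : ∀ r ∈ JHRgl.rels, ev g r = 1) :
    CardLe (genL g (List.range 8)) 9999360 :=
  (((cardLe_genW_nil g).job (ren := [[0], [1], [2], [3], [5]]) (JHRb.relIndex_le (renG_255 g (by decide))
    (renG_rels (rels_of_sub hg (by decide +kernel)))) (by decide +kernel) rfl rfl).job
    (ren := [[0], [1], [2], [3], [5], [6], [7]]) (JHRnl.relIndex_le (renG_255 g (by decide))
    (renG_rels (rels_of_sub hg (by decide +kernel)))) (by decide +kernel) rfl rfl).of_relIndex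
    (JHRgl.relIndex_le he hg fun _ hw => mem_genW g hw)

theorem St.rels_m [Finite G] (h : St f) (H : Ty f a d 0 1) : ∀ r ∈ JHRgm.rels, ev (HeR.gg f a d) r = 1 :=
  h.rels H (L := [[0, 6, 0, 1, 5, 3, 0, 7, 0, 1, 5, 3, 0, 7, 0, 1, 5, 3, 0, 7, 0, 1, 5, 3, 0, 7], [1, 4, 1, 0, 6, 1, 4, 1, 0, 6, 1, 4, 1, 0, 6]]) (List.forall_mem_cons.2 ⟨h.ex1 H (w := [0, 1, 5, 3, 0]) (k := 4) (tt := [0, 6]) (n := 16916545) (ni := 16916545) (y := 17568073) (yi := 17568601) (by decide) (by decide +kernel),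
    List.forall_mem_singleton.2 (h.ex2 H (w := [1, 4, 1, 0]) (k := 3) (tt := []) (n := 17045585) (ni := 17045585) (y := 17043539) (yi := 17043539) (by decide) (by decide +kernel))⟩) (by decide +kernel)

theorem card_m {g : ℕ → G} (he : g 255 = 1) (hg : ∀ r ∈ JHRgm.rels, ev g r = 1) :
    CardLe (genL g (List.range 8)) 244823040 :=
  (((cardLe_genW_nil g).job (ren := [[0], [1], [2], [3], [5]]) (JHRb.relIndex_le (renG_255 g (by decide))
    (renG_rels (rels_of_sub hg (by decide +kernel)))) (by decide +kernel) rfl rfl).job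
    (ren := [[0], [1], [2], [3], [5], [6], [7]]) (JHRnm.relIndex_le (renG_255 g (by decide))
    (renG_rels (rels_of_sub hg (by decide +kernel)))) (by decide +kernel) rfl rfl).of_relIndex
    (JHRgm.relIndex_le he hg fun _ hw => mem_genW g hw)

theorem St.rels_e [Finite G] (h : St f) (H : Ty f a d 1 1) : ∀ r ∈ JHRge.rels, ev (HeR.gg f a d) r = 1 :=
  h.rels H (L := [[6, 0, 5, 3, 2, 1, 5, 7, 5, 3, 2, 1, 5, 7, 5, 3, 2, 1, 5, 7, 5, 3, 2, 1, 5, 7], [7, 3, 4, 0, 1, 2, 4, 6, 4, 0, 1, 2, 4, 6, 4, 0, 1, 2, 4, 6, 4, 0, 1, 2, 4, 6]]) (List.forall_mem_cons.2 ⟨h.ex1 H (w := [5, 3, 2, 1, 5]) (k := 4) (tt := [6, 0]) (n := 17174609) (ni := 17174609) (y := 17584977) (yi := 17584465) (by decide) (by decide +kernel),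
    List.forall_mem_singleton.2 (h.ex2 H (w := [4, 0, 1, 2, 4]) (k := 4) (tt := [7, 3]) (n := 17045585) (ni := 17045585) (y := 17043799) (yi := 17043807) (by decide) (by decide +kernel))⟩) (by decide +kernel)

theorem card_e {g : ℕ → G} (he : g 255 = 1) (hg : ∀ r ∈ JHRge.rels, ev g r = 1) :
    CardLe (genL g (List.range 8)) 4030387200 :=
  (((cardLe_genW_nil g).job (ren := [[0], [1], [2], [3], [5]]) (JHRb.relIndex_le (renG_255 g (by decide))
    (renG_rels (rels_of_sub hg (by decide +kernel)))) (by decide +kernel) rfl rfl).job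
    (ren := [[0], [1], [2], [3], [5], [6], [7]]) (JHRne.relIndex_le (renG_255 g (by decide))
    (renG_rels (rels_of_sub hg (by decide +kernel)))) (by decide +kernel) rfl rfl).of_relIndex
    (JHRge.relIndex_le he hg fun _ hw => mem_genW g hw)


theorem St.gg_255 (h : St f) : HeR.gg f a d 255 = 1 := h.one

theorem St.rels_p (h : St f) (H : A1 f a 0) : ∀ r ∈ JHRp.rels, ev (HeR.gg f a 1) r = 1 := by
  have c0 : ev (HeR.gg f a 1) [0, 6, 0, 6, 0, 6] = 1 := by rw [← H.2]; simp [HeR.gg, pow_succ, mul_assoc]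
  refine h.rels' H.1 (ac_triv f) (L := [[0, 6, 0, 6, 0, 6], [4, 6, 4, 6, 4, 6]])
    (List.forall_mem_cons.2 ⟨c0, List.forall_mem_singleton.2 ?_⟩) (by decide +kernel)
  have c : ∀ x ∈ [z, u, x3, 17567809, 17051977], Commute (ev (HeR.gg f a 1) [4, 6, 4, 6, 4, 6]) (f x) := fun x hx =>
    h.fix H.1 (ac_triv f) (V_iv (by revert x; decide +kernel)) (by revert x; decide +kernel)
  obtain ⟨m, hm, e⟩ := h.surj _ (c z (by decide))
  have h1 := imp_iff.1 (scan (P := fun n => imp (Comp.allL [z, u, x3, 17567809, 17051977] (HeR.cm n))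
    (force (acA (al 0) okC [4, 6] n) fun y => band (!Nat.beq y 0) (imp (Nat.beq y n) (bor (Nat.beq n HeR.one) (Nat.beq n 17060433)))))
    (by decide +kernel) hm) (Comp.allL_iff.2 fun x hx => (h.cm hm (V_iv (by revert x; decide +kernel))).2 (e ▸ c x hx))
  simp only [force_eq, band_eq, Bool.and_eq_true, Bool.not_eq_true', nbeq_false, imp_iff, nbeq, bor_eq, Bool.or_eq_true] at h1
  rcases h1.2 ((h.actw H.1 (ac_triv f) [4, 6] hm h1.1).eq h ⟨hm, hm, by rw [← e]; simp [mul_assoc]⟩ rfl) with rfl | rfl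
  · exact e.trans h.one
  · have := rels_of_seeds (JHRq.seedsOk h.gg_255 (h.rels' H.1 (ac_triv f) (L := [[0, 6, 0, 6, 0, 6], [0, 1, 5, 3, 5, 1, 0] ++ [4, 6, 4, 6, 4, 6]])
      (List.forall_mem_cons.2 ⟨c0, List.forall_mem_singleton.2 (by
        rw [ev_append, e, ev_gg h (by decide), ← h.mul hm (V_evc _), h.eq_one (hm.mul (V_evc _))]; decide +kernel)⟩)
      (by decide +kernel)) (subs_basePt _ _)) (ws := [[1, 2, 3, 2, 1, 0, 1, 2, 3, 2, 1, 0]]) (by decide +kernel) _ List.mem_cons_self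
    rw [ev_gg h (by decide), h.eq_one (V_evc _)] at this
    exact absurd this (by decide +kernel)

theorem card_p {g : ℕ → G} (he : g 255 = 1) (hg : ∀ r ∈ JHRp.rels, ev g r = 1) :
    CardLe (genL g (List.range 7)) 322560 :=
  (((cardLe_genW_nil g).job (ren := [[0], [1], [2], [3], [5]]) (JHRb.relIndex_le (renG_255 g (by decide))
    (renG_rels (rels_of_sub hg (by decide +kernel)))) (by decide +kernel) rfl rfl).job
    (ren := [[0], [1], [2], [3], [4], [5]]) (JHRh.relIndex_le (renG_255 g (by decide))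
    (renG_rels (rels_of_sub hg (by decide +kernel)))) (by decide +kernel) rfl rfl).of_relIndex
    (JHRp.relIndex_le he hg fun _ hw => mem_genW g hw)

end Cfsg.Agent.HeR
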